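import Cfsg.Agent.PSLTwo25.DicksonPSL

/-!
Order bound and solubility for proper subgroups of `PSL(2, q)`.
-/

set_option autoImplicit false
set_option linter.unusedSectionVars false

open scoped OnePoint MatrixGroups commutatorElement

namespace Cfsg.Agent.PSLTwo25.DicksonPSL

open Matrix MulAction Cfsg.Agent.MaxSub.Dickson

variable {F : Type*} [Field F] [Fintype F] [DecidableEq F]

local notation "q" => Fintype.card F

theorem mul_stab_infty (u : Fˣ) : aff u (0 : F) • (∞ : OnePoint F) = ∞ := aff_infty u 0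

theorem lsub_transitive (x y : OnePoint F) : ∃ g ∈ lsub F, g • x = y := by
  have key : ∀ y : OnePoint F, ∃ g ∈ lsub F, g • (∞ : OnePoint F) = y := by
    intro y
    obtain ⟨h, hh⟩ := exists_move y
    by_cases hl : h ∈ lsub F
    · exact ⟨h, hl, hh⟩
    have hd : (lsub F).index = 2 := by
      rcases d_cases (F := F) with ⟨-, hd⟩ | ⟨-, hd⟩
      · exact absurd ((Subgroup.index_eq_one.1 (index_lsub.trans hd)).symm ▸ Subgroup.mem_top h) hl
      · exact index_lsub.trans hd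
    obtain ⟨u, hu⟩ : ∃ u : Fˣ, ¬ IsSquare (u : F) := by
      obtain ⟨g, hg⟩ := SetLike.exists_not_mem_of_ne_top (lsub F) (fun e => hl (e ▸ Subgroup.mem_top h))
      induction g using ProjGenLinGroup.induction_on with | mk A =>
      rw [mk_mem_lsub_iff] at hg
      exact ⟨Units.mk0 _ A.det_ne_zero, hg⟩
    refine ⟨h * aff u 0, (Subgroup.mul_mem_iff_of_index_two hd).2
      (iff_of_false hl (fun e => hu ((aff_mem_lsub_iff u 0).1 e))), ?_⟩
    rw [mul_smul, aff_infty, hh]
  obtain ⟨g, hg, rfl⟩ := key x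
  obtain ⟨g', hg', rfl⟩ := key y
  exact ⟨g' * g⁻¹, mul_mem hg' (inv_mem hg), by rw [mul_smul, inv_smul_smul]⟩

theorem card_stab_lsub (x : OnePoint F) :
    Nat.card ↥(stabilizer PGL(2, F) x ⊓ lsub F) * (q + 1) = Nat.card (lsub F) := by
  have horb : orbit (lsub F) x = Set.univ := by
    refine Set.eq_univ_of_forall fun y => ?_
    obtain ⟨g, hg, hgy⟩ := lsub_transitive x y
    exact ⟨⟨g, hg⟩, hgy⟩
  rw [← card_orbit_mul (G := lsub F) x, horb, Set.ncard_univ, Nat.card_eq_fintype_card (α := OnePoint F),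
    show Fintype.card (OnePoint F) = q + 1 from Fintype.card_option, mul_comm]
  congr 1
  exact Nat.card_congr
    { toFun := fun g => ⟨⟨g.1, g.2.2⟩, g.2.1⟩
      invFun := fun g => ⟨g.1.1, g.2, g.1.2⟩
      left_inv := fun g => rfl
      right_inv := fun g => rfl }

theorem stab_lsub_ne (x : OnePoint F) : stabilizer PGL(2, F) x ⊓ lsub F ≠ lsub F := by
  intro h
  have h1 := card_stab_lsub x
  rw [h] at h1
  have := Nat.card_pos (α := lsub F)
  nlinarith [Fintype.one_lt_card (α := F)]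

/-- Order bound for proper subgroups. -/
theorem card_mul_le (p : ℕ) [Fact p.Prime] [CharP F p] (hq : q ∉ ({2, 3, 5, 7, 9, 11} : Finset ℕ))
    {H : Subgroup PGL(2, F)} (hH : H ≤ lsub F) (hne : H ≠ lsub F) :
    Nat.card H * (q + 1) ≤ Nat.card (lsub F) := by
  classical
  simp only [Finset.mem_insert, Finset.mem_singleton] at hq
  push Not at hq
  have h1 := Fintype.one_lt_card (α := F)
  have hd := d_mul_card_lsub (F := F)
  have hmul : ∀ s, Nat.gcd 2 (q - 1) * s ≤ q * (q - 1) → s * (q + 1) ≤ Nat.card (lsub F) := by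
    intro s hs
    refine le_of_mul_le_mul_left (a := Nat.gcd 2 (q - 1)) ?_ (Nat.gcd_pos_of_pos_left _ two_pos)
    rw [hd, ← mul_assoc]
    exact Nat.mul_le_mul_right _ hs
  obtain ⟨hcy, hdi⟩ : (Nat.gcd 2 (q - 1) * (q + 1) ≤ q * (q - 1)) ∧
      Nat.gcd 2 (q - 1) * (2 * (q + 1)) ≤ q * (q - 1) := by
    obtain ⟨c, hc⟩ : ∃ c, q = c + 4 := ⟨q - 4, by omega⟩
    rcases d_cases (F := F) with ⟨-, hd'⟩ | ⟨ho, hd'⟩ <;> rw [hd', hc, show c + 4 - 1 = c + 3 by omega]
    · constructor <;> nlinarith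
    · have : 3 ≤ c := by
        obtain ⟨k, hk⟩ := ho
        omega
      constructor <;> nlinarith
  have h60 : p ≠ 2 → ∀ s, s ≤ 60 → Nat.gcd 2 (q - 1) * s ≤ q * (q - 1) := by
    intro hp2 s hs
    have ho : Odd q := by
      obtain ⟨e', hpp, hcard⟩ := FiniteField.card F p
      rw [hcard]
      exact Odd.pow (hpp.odd_of_ne_two hp2)
    rcases d_cases (F := F) with ⟨he, -⟩ | ⟨-, hd'⟩
    · exact absurd he (Nat.not_even_iff_odd.2 ho)
    · rw [hd']
      obtain ⟨k, hk⟩ := ho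
      have : 13 ≤ q := by omega
      calc 2 * s ≤ 13 * 12 := by omega
        _ ≤ q * (q - 1) := Nat.mul_le_mul this (by omega)
  have hsub : ∀ F₀ : Subfield F, 4 ≤ Nat.card F₀ → Nat.card F₀ ^ 2 ≤ q →
      Nat.gcd 2 (q - 1) * (Nat.card F₀ * (Nat.card F₀ - 1) * (Nat.card F₀ + 1)) ≤ q * (q - 1) := by
    intro F₀ h4 hsq
    obtain ⟨k, hk⟩ : ∃ k, Nat.card F₀ = k + 4 := ⟨Nat.card F₀ - 4, by omega⟩
    rw [hk] at hsq ⊢
    calc Nat.gcd 2 (q - 1) * ((k + 4) * (k + 4 - 1) * (k + 4 + 1))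
        ≤ 2 * ((k + 4) * (k + 4 - 1) * (k + 4 + 1)) := Nat.mul_le_mul_right _ (Nat.gcd_le_left _ two_pos)
      _ ≤ (k + 4) ^ 2 * ((k + 4) ^ 2 - 1) := by
          rw [show k + 4 - 1 = k + 3 by omega,
            show (k + 4) ^ 2 - 1 = (k + 3) * (k + 5) by
              have : (k + 4) ^ 2 = (k + 3) * (k + 5) + 1 := by ring
              omega]
          nlinarith [Nat.mul_le_mul_right ((k + 4) * (k + 3) * (k + 5)) (show 2 ≤ k + 4 by omega)]
      _ ≤ q * (q - 1) := Nat.mul_le_mul hsq (by omega)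
  let L := AlgebraicClosure F
  rcases classifyF (K := L) (p := p) H with ⟨a, b, m, hp, hc, hab, hl, hdvd⟩ |
    ⟨a, b, m, n, hab, hl, hn, hpn, hdvd, hcard, hiso⟩ | ⟨x, hfix, hp⟩ |
    ⟨hp, hcard, -⟩ | ⟨hp, hcard, -⟩ | ⟨hp, hcard, -⟩ | ⟨F₀, h, h4, he⟩ | ⟨F₀, h, h4, hodd, he⟩
  · refine hmul _ ((Nat.mul_le_mul_left _ ?_).trans hcy)
    obtain ⟨-, ⟨-, -, rfl⟩ | ⟨-, -, rfl⟩⟩ := hab
    · exact (Nat.le_of_dvd (by omega) hdvd).trans (by omega)
    · exact Nat.le_of_dvd (by omega) hdvd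
  · refine hmul _ ((Nat.mul_le_mul_left _ ?_).trans hdi)
    rw [hcard]
    obtain ⟨-, ⟨-, -, rfl⟩ | ⟨-, -, rfl⟩⟩ := hab
    · have := Nat.le_of_dvd (by omega) hdvd; omega
    · have := Nat.le_of_dvd (by omega) hdvd; omega
  · calc Nat.card H * (q + 1) ≤ Nat.card ↥(stabilizer PGL(2, F) x ⊓ lsub F) * (q + 1) :=
          Nat.mul_le_mul_right _ (Subgroup.card_le_of_le (le_inf hfix hH))
      _ = _ := card_stab_lsub x
  · exact hmul _ (h60 hp _ (by omega))
  · exact hmul _ (h60 hp _ (by omega))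
  · exact hmul _ (h60 hp _ (by omega))
  · obtain ⟨-, hle, htop⟩ := subfield_type hH F₀ h (.inl he)
    rcases subfield_cases F₀ with hc | hc
    · exact absurd (htop hc) hne
    · exact hmul _ ((Nat.mul_le_mul_left _ hle).trans (hsub F₀ h4 hc))
  · obtain ⟨-, hle, htop⟩ := subfield_type hH F₀ h (.inr he)
    rcases subfield_cases F₀ with hc | hc
    · exact absurd (htop hc) hne
    · exact hmul _ ((Nat.mul_le_mul_left _ hle).trans (hsub F₀ h4 hc))

/-- A proper subgroup of index `q + 1` exists. -/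
theorem exists_index :
    ∃ H : Subgroup (ProjectiveSpecialLinearGroup (Fin 2) F), H.index = q + 1 := by
  let φ : ProjectiveSpecialLinearGroup (Fin 2) F →* PGL(2, F) := ProjectiveSpecialLinearGroup.toPGL
  let D := stabilizer PGL(2, F) (∞ : OnePoint F) ⊓ lsub F
  refine ⟨D.comap φ, Nat.eq_of_mul_eq_mul_right (Nat.card_pos (α := D.comap φ)) ?_⟩
  rw [Subgroup.index_mul_card, ← card_lsub, ← card_stab_lsub (F := F) (∞ : OnePoint F), mul_comm]
  congr 1
  rw [Nat.card_congr ((D.comap φ).equivMapOfInjective φ ProjectiveSpecialLinearGroup.toPGL_injective).toEquiv,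
    Subgroup.map_comap_eq_self (by rw [range_toPGL]; exact inf_le_right)]

theorem map_ne_lsub {H : Subgroup (ProjectiveSpecialLinearGroup (Fin 2) F)} (h : H ≠ ⊤) :
    H.map ProjectiveSpecialLinearGroup.toPGL ≠ lsub F := fun e => h (Subgroup.map_injective
      ProjectiveSpecialLinearGroup.toPGL_injective
      (e.trans (range_toPGL.symm.trans (MonoidHom.range_eq_map _))))

/-! ### Solubility -/

/-- Klein's four-group inside `Perm (Fin 4)`. -/
def kleinV : Subgroup (Equiv.Perm (Fin 4)) where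
  carrier := {g | g * g = 1 ∧ Equiv.Perm.sign g = 1}
  one_mem' := by simp
  mul_mem' {a b} := by revert a b; decide +kernel
  inv_mem' {a} := by revert a; decide +kernel

theorem solvable_perm_four : Group.IsSolvable (Equiv.Perm (Fin 4)) := by
  refine ⟨3, ?_⟩
  have h1 : derivedSeries (Equiv.Perm (Fin 4)) 1 ≤ (Equiv.Perm.sign (α := Fin 4)).ker := by
    rw [derivedSeries_succ, derivedSeries_zero, Subgroup.commutator_le]
    intro a _ b _
    rw [MonoidHom.mem_ker, map_commutatorElement]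
    exact commutatorElement_eq_one_iff_commute.2 (Commute.all _ _)
  have hV : ∀ a b : Equiv.Perm (Fin 4), Equiv.Perm.sign a = 1 → Equiv.Perm.sign b = 1 →
      (a * b * a⁻¹ * b⁻¹) * (a * b * a⁻¹ * b⁻¹) = 1 := by decide +kernel
  have hC : ∀ a b : Equiv.Perm (Fin 4), a * a = 1 → Equiv.Perm.sign a = 1 → b * b = 1 →
      Equiv.Perm.sign b = 1 → a * b = b * a := by decide +kernel
  have h2 : derivedSeries (Equiv.Perm (Fin 4)) 2 ≤ kleinV := by
    rw [derivedSeries_succ, Subgroup.commutator_le]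
    intro a ha b hb
    refine ⟨?_, ?_⟩
    · rw [commutatorElement_def]; exact hV a b (h1 ha) (h1 hb)
    · rw [map_commutatorElement]
      exact commutatorElement_eq_one_iff_commute.2 (Commute.all _ _)
  rw [derivedSeries_succ, Subgroup.commutator_eq_bot_iff_le_centralizer]
  intro a ha b hb
  exact hC b a (h2 hb).1 (h2 hb).2 (h2 ha).1 (h2 ha).2

theorem solvable_dihedral (n : ℕ) : Group.IsSolvable (DihedralGroup n) := by
  refine ⟨2, ?_⟩
  have h1 : derivedSeries (DihedralGroup n) 1 ≤ Subgroup.zpowers (DihedralGroup.r 1) := by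
    rw [derivedSeries_succ, derivedSeries_zero, Subgroup.commutator_le]
    intro a _ b _
    have key : ∀ i : ZMod n, DihedralGroup.r i ∈ Subgroup.zpowers (DihedralGroup.r (1 : ZMod n)) :=
      fun i => ⟨(i.cast : ℤ), by simp⟩
    rcases a with i | i <;> rcases b with j | j <;> simp [commutatorElement_def, key]
  rw [derivedSeries_succ, Subgroup.commutator_eq_bot_iff_le_centralizer]
  intro a ha b hb
  obtain ⟨i, rfl⟩ := h1 ha
  obtain ⟨j, rfl⟩ := h1 hb
  exact (Commute.refl _).zpow_zpow j i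

theorem aff_inv (u : Fˣ) (v : F) : (aff u v)⁻¹ = aff u⁻¹ (-((u⁻¹ : Fˣ) : F) * v) := by
  refine inv_eq_of_mul_eq_one_right ?_
  rw [aff_mul, aff_eq_one_iff]
  exact ⟨mul_inv_cancel u, by rw [← mul_assoc, mul_neg, Units.mul_inv]; ring⟩

theorem solvable_stabilizer (x : OnePoint F) : Group.IsSolvable (stabilizer PGL(2, F) x) := by
  obtain ⟨h, rfl⟩ := exists_move x
  suffices hs : Group.IsSolvable (stabilizer PGL(2, F) (∞ : OnePoint F)) from
    Group.isSolvable_of_surjective (G := stabilizer PGL(2, F) (∞ : OnePoint F))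
      (f := (stabilizerEquivStabilizer (α := OnePoint F) (g := h) rfl).toMonoidHom)
      (MulEquiv.surjective _)
  refine ⟨2, ?_⟩
  let P := stabilizer PGL(2, F) (∞ : OnePoint F)
  have hform : ∀ a : P, ∃ u v, (a : PGL(2, F)) = aff u v := fun a => exists_aff a.2
  have h1 : ∀ g ∈ derivedSeries P 1, ∃ v, (g : PGL(2, F)) = aff 1 v := by
    intro g hg
    rw [derivedSeries_succ, derivedSeries_zero] at hg
    refine Subgroup.closure_induction ?_ ?_ ?_ ?_ hg
    · rintro _ ⟨a, -, b, -, rfl⟩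
      obtain ⟨u, v, ha⟩ := hform a
      obtain ⟨u', v', hb⟩ := hform b
      obtain ⟨u'', v'', hc⟩ := hform ⁅a, b⁆
      refine ⟨v'', ?_⟩
      have h' : ((⁅a, b⁆ : P) : PGL(2, F)) = aff u v * aff u' v' * (aff u v)⁻¹ * (aff u' v')⁻¹ := by
        rw [← ha, ← hb]; rfl
      rw [hc, aff_inv, aff_inv, aff_mul, aff_mul, aff_mul] at h'
      have := (aff_inj h').1
      rw [hc, this]
      congr 1
      rw [mul_comm u u', mul_inv_cancel_right, mul_inv_cancel]
    · exact ⟨0, by simp [aff_one]⟩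
    · rintro a b - - ⟨v, ha⟩ ⟨w, hb⟩
      exact ⟨_, by rw [Subgroup.coe_mul, ha, hb, aff_mul, mul_one]⟩
    · rintro a - ⟨v, ha⟩
      exact ⟨_, by rw [Subgroup.coe_inv, ha, aff_inv, inv_one]⟩
  rw [derivedSeries_succ, Subgroup.commutator_eq_bot_iff_le_centralizer]
  intro a ha b hb
  obtain ⟨v, hv⟩ := h1 a ha
  obtain ⟨w, hw⟩ := h1 b hb
  refine Subtype.ext ?_
  rw [Subgroup.coe_mul, Subgroup.coe_mul, hv, hw, aff_mul, aff_mul]
  congr 1
  simp [add_comm]

/-- Proper subgroups of `lsub` are soluble unless `A_5` or a subfield group occurs. -/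
theorem solvable_or (p : ℕ) [Fact p.Prime] [CharP F p]
    {H : Subgroup PGL(2, F)} (hH : H ≤ lsub F) (hne : H ≠ lsub F) :
    Group.IsSolvable H ∨ (p ≠ 2 ∧ Nat.card H = 60) ∨
      ∃ F₀ : Subfield F, 4 ≤ Nat.card F₀ ∧ Nat.card F₀ ^ 2 ≤ q := by
  classical
  let L := AlgebraicClosure F
  rcases classifyF (K := L) (p := p) H with ⟨a, b, m, hp, hc, hab, hl, hdvd⟩ |
    ⟨a, b, m, n, hab, hl, hn, hpn, hdvd, hcard, ⟨iso⟩⟩ | ⟨x, hfix, hp⟩ |
    ⟨hp, hcard, ⟨iso⟩⟩ | ⟨hp, hcard, ⟨iso⟩⟩ | ⟨hp, hcard, -⟩ | ⟨F₀, h, h4, he⟩ | ⟨F₀, h, h4, hodd, he⟩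
  · obtain ⟨g, hg⟩ := hc.exists_generator
    refine .inl (Group.isSolvable_of_comm fun u v => ?_)
    obtain ⟨i, rfl⟩ := hg u
    obtain ⟨j, rfl⟩ := hg v
    exact (Commute.refl g).zpow_zpow i j
  · have := solvable_dihedral n
    exact .inl (Group.isSolvable_of_surjective iso.symm.surjective (f := iso.symm.toMonoidHom))
  · have := solvable_stabilizer x
    exact .inl (Group.isSolvable_of_isSolvable_injective (f := Subgroup.inclusion (show H ≤ stabilizer PGL(2, F) x from fun g hg => mem_stabilizer_iff.2 (hfix g hg)))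
      (Subgroup.inclusion_injective _))
  · have := solvable_perm_four
    exact .inl (Group.isSolvable_of_isSolvable_injective
      (f := (alternatingGroup (Fin 4)).subtype.comp iso.toMonoidHom)
      (Subtype.val_injective.comp iso.injective))
  · have := solvable_perm_four
    exact .inl (Group.isSolvable_of_isSolvable_injective (f := iso.toMonoidHom) iso.injective)
  · exact .inr (.inl ⟨hp, hcard⟩)
  · obtain ⟨-, hle, htop⟩ := subfield_type hH F₀ h (.inl he)
    rcases subfield_cases F₀ with hc | hc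
    · exact absurd (htop hc) hne
    · exact .inr (.inr ⟨F₀, h4, hc⟩)
  · obtain ⟨-, hle, htop⟩ := subfield_type hH F₀ h (.inr he)
    rcases subfield_cases F₀ with hc | hc
    · exact absurd (htop hc) hne
    · exact .inr (.inr ⟨F₀, h4, hc⟩)

end Cfsg.Agent.PSLTwo25.DicksonPSL
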