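import Cfsg.Agent.PSLTwo25.DicksonBound
import Cfsg.Agent.PSLTwo25.Subfield

/-!
Helper facts for the criterion for `PSL(2, q)` to be minimal simple.
-/

set_option autoImplicit false
set_option linter.unusedSectionVars false

open scoped OnePoint MatrixGroups

namespace Cfsg.Agent.PSLTwo25.DicksonPSL

open Matrix MulAction Cfsg.Agent.MaxSub.Dickson Cfsg.Agent.PermB

variable {F : Type*} [Field F] [Fintype F] [DecidableEq F]

local notation "PSL2" => ProjectiveSpecialLinearGroup (Fin 2) F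

theorem not_isSolvable_alt_five : ¬ Group.IsSolvable (alternatingGroup (Fin 5)) := by
  intro h
  have hsign : Group.IsSolvable (Equiv.Perm (Fin 5)) :=
    Group.isSolvable_of_ker_le_range (alternatingGroup (Fin 5)).subtype (Equiv.Perm.sign (α := Fin 5))
      (by rw [Subgroup.range_subtype]; exact le_rfl)
  exact Equiv.Perm.not_isSolvable_fin_5 hsign

theorem not_isMulCommutative (_h : 4 ≤ Fintype.card F) : ¬ IsMulCommutative PSL2 := by
  intro hc
  have h1 : aff (1 : Fˣ) (1 : F) ∈ lsub F := (aff_mem_lsub_iff _ _).2 (by simp)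
  obtain ⟨g, hg, hg0⟩ := lsub_transitive (F := F) ∞ ((0 : F) : OnePoint F)
  rw [← range_toPGL] at h1 hg
  obtain ⟨a, ha⟩ := h1
  obtain ⟨b, hb⟩ := hg
  have hcomm : aff (1 : Fˣ) (1 : F) * g = g * aff 1 1 := by
    rw [← ha, ← hb, ← map_mul, ← map_mul, hc.is_comm.comm]
  have := congrArg (fun x => x • (∞ : OnePoint F)) hcomm
  simp only [mul_smul, hg0, aff_infty, aff_coe] at this
  simp at this

theorem four_le_of_simple (hs : IsSimpleGroup PSL2) (hn : ¬ IsMulCommutative PSL2) :
    4 ≤ Fintype.card F := by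
  by_contra h
  push Not at h
  have hcard : Fintype.card (OnePoint F) ≤ 4 := by
    rw [show Fintype.card (OnePoint F) = Fintype.card F + 1 from Fintype.card_option]; omega
  obtain ⟨ι⟩ := Function.Embedding.nonempty_of_card_le (α := OnePoint F) (β := Fin 4) (by simpa using hcard)
  let φ : PSL2 →* Equiv.Perm (Fin 4) :=
    (Equiv.Perm.viaEmbeddingHom ι).comp
      (((Mobius.pglPerm (K := F))).comp ProjectiveSpecialLinearGroup.toPGL)
  have hφ : Function.Injective φ :=
    (Equiv.Perm.viaEmbeddingHom_injective ι).comp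
      (Mobius.pglPerm_injective.comp ProjectiveSpecialLinearGroup.toPGL_injective)
  have := solvable_perm_four
  have := Group.isSolvable_of_isSolvable_injective hφ
  exact hn ⟨⟨fun a b => IsSimpleGroup.comm_iff_isSolvable.2 this a b⟩⟩

theorem exists_subfield_psl (p f : ℕ) [Fact p.Prime] (hF : Fintype.card F = p ^ f) {j : ℕ} (hj : j ∣ f)
    (hj0 : j ≠ 0) :
    ∃ H : Subgroup PSL2, Nonempty (H ≃* ProjectiveSpecialLinearGroup (Fin 2) (GaloisField p j)) := by
  have := Fintype.ofFinite (GaloisField p j)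
  obtain ⟨k, rfl⟩ := hj
  have hk : 1 ≤ k := by
    by_contra h
    have := Fintype.one_lt_card (α := F)
    rw [hF, show k = 0 by omega, mul_zero, pow_zero] at this
    omega
  obtain ⟨φ⟩ := exists_ringHom_of_card_pow (K := GaloisField p j) (F := F) hk (by
    rw [← Nat.card_eq_fintype_card, GaloisField.card p j hj0, hF, pow_mul])
  exact exists_psl_embedding φ

/-- A subfield of order at least four gives a non-soluble proper subgroup. -/
theorem subfield_lt_four (p f : ℕ) [Fact p.Prime] (hF : Fintype.card F = p ^ f) {j : ℕ} (hj : j ∣ f)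
    (hj0 : j ≠ 0) (hjf : j ≠ f) (hsol : ∀ H : Subgroup PSL2, H ≠ ⊤ → Group.IsSolvable H) :
    p ^ j < 4 := by
  classical
  by_contra h4
  push Not at h4
  have := Fintype.ofFinite (GaloisField p j)
  obtain ⟨H, ⟨e⟩⟩ := exists_subfield_psl p f hF hj hj0
  have hK : Fintype.card (GaloisField p j) = p ^ j := by
    rw [← Nat.card_eq_fintype_card, GaloisField.card p j hj0]
  have hp := (Fact.out : p.Prime)
  have hf0 : f ≠ 0 := by
    intro h
    have := Fintype.one_lt_card (α := F)
    rw [hF, h, pow_zero] at this; omega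
  have hlt : p ^ j < p ^ f := by
    refine Nat.pow_lt_pow_right hp.one_lt (lt_of_le_of_ne (Nat.le_of_dvd ?_ hj) hjf)
    rcases Nat.eq_zero_or_pos f with h | h
    · have := Fintype.one_lt_card (α := F)
      rw [hF, h, pow_zero] at this; omega
    · exact h
  have hne : H ≠ ⊤ := by
    intro htop
    have hc : Nat.card (ProjectiveSpecialLinearGroup (Fin 2) (GaloisField p j)) = Nat.card PSL2 := by
      rw [← Nat.card_congr e.toEquiv, htop, Subgroup.card_top]
    have h1 := d_mul_card_lsub (F := GaloisField p j)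
    have h2 := d_mul_card_lsub (F := F)
    rw [card_lsub] at h1 h2
    rw [hc, hK] at h1
    rw [hF] at h2
    have hg : Nat.gcd 2 (p ^ j - 1) = Nat.gcd 2 (p ^ f - 1) := by
      rcases d_cases (F := GaloisField p j) with ⟨he, hd⟩ | ⟨ho, hd⟩ <;>
        rcases d_cases (F := F) with ⟨he', hd'⟩ | ⟨ho', hd'⟩ <;>
        rw [hK] at hd <;> rw [hF] at hd' <;> rw [hd, hd']
      · rw [hK, Nat.even_pow] at he
        rw [hF] at ho'
        exact absurd (he.1.pow_of_ne_zero hf0) (Nat.not_even_iff_odd.2 ho')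
      · rw [hF, Nat.even_pow] at he'
        rw [hK] at ho
        exact absurd (he'.1.pow_of_ne_zero hj0) (Nat.not_even_iff_odd.2 ho)
    rw [hg, h2] at h1
    have h3 : p ^ j * (p ^ j - 1) * (p ^ j + 1) < p ^ f * (p ^ f - 1) * (p ^ f + 1) := by
      gcongr <;> omega
    omega
  have := hsol H hne
  have hs := Group.isSolvable_of_surjective (f := e.toMonoidHom) e.surjective
  have hsimp := Linear.isSimpleGroup_PSL_fin (F := GaloisField p j) 2 le_rfl
    (fun _ => by rw [GaloisField.card p j hj0]; exact h4)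
  exact not_isMulCommutative (F := GaloisField p j) (hK ▸ h4)
    ⟨⟨fun a b => IsSimpleGroup.comm_iff_isSolvable.2 hs a b⟩⟩

/-- The minimal simple cases. -/
def Cases (q : ℕ) : Prop :=
  (∃ r : ℕ, r.Prime ∧ q = 2 ^ r) ∨ (∃ r : ℕ, r.Prime ∧ r ≠ 2 ∧ q = 3 ^ r) ∨
    (q.Prime ∧ 5 < q ∧ (q % 5 = 2 ∨ q % 5 = 3)) ∨ q = 5

theorem five_of_cases {p q : ℕ} (hp : p.Prime) {f : ℕ+} (hq : q = p ^ (f : ℕ)) (hp2 : p ≠ 2)
    (h : Cases q) (h5 : 5 ∣ q * (q - 1) * (q + 1)) : q = 5 := by
  have key : ∀ q : ℕ, q % 5 = 2 ∨ q % 5 = 3 → ¬ 5 ∣ q * (q - 1) * (q + 1) := by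
    intro q hq hd
    rcases (Nat.Prime.dvd_mul (by norm_num)).1 hd with hd | hd
    · rcases (Nat.Prime.dvd_mul (by norm_num)).1 hd with hd | hd <;> omega
    · omega
  rcases h with ⟨r, hr, h⟩ | ⟨r, hr, hr2, h⟩ | ⟨-, -, h⟩ | h
  · exfalso
    rw [h] at hq
    have : p ∣ 2 ^ r := hq ▸ dvd_pow_self p f.ne_zero
    exact hp2 ((Nat.prime_dvd_prime_iff_eq hp Nat.prime_two).1 (hp.dvd_of_dvd_pow this))
  · exfalso
    refine key q ?_ h5
    obtain ⟨k, rfl⟩ := hr.odd_of_ne_two hr2
    rw [h, pow_succ, pow_mul, Nat.mul_mod, Nat.pow_mod]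
    rcases Nat.even_or_odd k with ⟨c, rfl⟩ | ⟨c, rfl⟩
    · right
      rw [show (3 ^ 2 % 5) = 4 from rfl, ← two_mul, pow_mul, Nat.pow_mod]
      simp
    · left
      rw [show (3 ^ 2 % 5) = 4 from rfl, pow_succ, pow_mul]
      simp [Nat.mul_mod, Nat.pow_mod]
  · exact absurd h5 (key q h)
  · exact h

theorem small_subfield {p q : ℕ} (hp : p.Prime) {f : ℕ+} (hq : q = p ^ (f : ℕ)) (h : Cases q)
    {j k : ℕ} (hjk : j * k = f) (hk : k ≠ 1) (h4 : 4 ≤ p ^ j) : False := by
  have key : ∀ s r : ℕ, s.Prime → r.Prime → q = s ^ r → s < 4 → False := by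
    intro s r hs hr e hs4
    have hps : p = s := by
      refine (Nat.prime_dvd_prime_iff_eq hp hs).1 (hp.dvd_of_dvd_pow (m := s) (n := r) ?_)
      rw [← e, hq]; exact dvd_pow_self p f.ne_zero
    subst hps
    have hfr : (f : ℕ) = r := Nat.pow_right_injective hp.two_le (hq.symm.trans e)
    rcases hr.eq_one_or_self_of_dvd k ⟨j, by rw [← hfr, ← hjk, mul_comm]⟩ with h1 | h1
    · exact hk h1
    · have hj1 : j = 1 := by
        rw [h1, hfr] at hjk
        exact (Nat.mul_eq_right hr.ne_zero).1 hjk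
      rw [hj1, pow_one] at h4
      omega
  have keyp : q.Prime → False := fun hqp => by
    rw [hq] at hqp
    have hf := hqp.eq_one_of_pow
    rw [hf] at hjk
    exact hk (Nat.eq_one_of_mul_eq_one_left hjk)
  rcases h with ⟨r, hr, e⟩ | ⟨r, hr, -, e⟩ | ⟨h, -⟩ | h
  · exact key 2 r Nat.prime_two hr e (by norm_num)
  · exact key 3 r Nat.prime_three hr e (by norm_num)
  · exact keyp h
  · exact keyp (h ▸ by norm_num)

end Cfsg.Agent.PSLTwo25.DicksonPSL
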